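import Mathlib
import Cfsg.Agent.H68.AltMul
import Cfsg.Agent.TwoFusion.SLTwoFacts
import Cfsg.Agent.S0254
import Cfsg.Agent.S0242

/-!
# The Schur multiplier of `SL(2, 9)` is cyclic of order 3
-/

set_option autoImplicit false
set_option linter.style.haveILetI false

namespace Cfsg.Agent.H68.SLNine

open Subgroup Cfsg.Agent.H51.Mult Cfsg.Agent.H68.Bounds

universe u

theorem main {F : Type u} [Field F] [Fintype F] (hF : Fintype.card F = 9) :
    Cfsg.HasCyclicSchurMultiplier (Matrix.SpecialLinearGroup (Fin 2) F) 3 := by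
  classical
  obtain ⟨e⟩ := Cfsg.Agent.S0254.result hF
  have h1 := Cfsg.Agent.H487.HasSchurMultiplier.congr_left (Cfsg.Agent.H68.AltMul.main (n := 6) (Or.inl rfl)) e.symm
  let ρ : Matrix.SpecialLinearGroup (Fin 2) F →* Matrix.ProjectiveSpecialLinearGroup (Fin 2) F :=
    QuotientGroup.mk' (center (Matrix.SpecialLinearGroup (Fin 2) F))
  have hρ : PCE ρ := by
    refine ⟨QuotientGroup.mk'_surjective _, ?_, ?_⟩
    · rw [QuotientGroup.ker_mk']
    · exact Cfsg.Agent.TwoFusion.SLTwoFacts.commutator_eq_top (by rw [hF]; norm_num)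
  have hc1 : Nat.card (Matrix.SpecialLinearGroup (Fin 2) F) = 720 := by
    have := Cfsg.Agent.S0242.result hF 2 (by norm_num)
    rw [Fin.prod_univ_two] at this
    simp only [Fin.val_zero, Fin.val_one] at this
    omega
  have hc2 : Nat.card (Matrix.ProjectiveSpecialLinearGroup (Fin 2) F) = 360 := by
    rw [Nat.card_congr e.toEquiv, Cfsg.Agent.H68.AltMul.card_alt (Or.inl rfl)]
    norm_num
  have hk : Nat.card ρ.ker = 2 := by
    have h2 := Subgroup.card_eq_card_quotient_mul_card_subgroup ρ.ker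
    rw [Nat.card_congr (QuotientGroup.quotientKerEquivOfSurjective ρ hρ.surj).toEquiv, hc1, hc2] at h2
    omega
  have h2 := hasCyclic_cover (by norm_num) h1 hρ
  rwa [hk] at h2

end Cfsg.Agent.H68.SLNine
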